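import Cfsg.Agent.H891.QuadTI
import Cfsg.Agent.H879.QuadPair

/-!
# An involution commuting with two square-zero TI elements

Combination of `H879.exists_involution` (existence, via quadratic pairs) and `H891.QP.HasNF.invol` (shape).
-/

set_option autoImplicit false

namespace Cfsg.Agent.H882.Pair

open Cfsg.Agent.H891.QP

variable {F : Type*} {V : Type*} [Field F] [Finite F] [AddCommGroup V] [Module F V] [FiniteDimensional F V]

/-- `s, t ∈ X` with `(s - 1)^2 = (t - 1)^2 = 0`, `⟨t, s⟩` not a `p`-group: an involution `z ∈ X` commuting with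
`t` and `s`, which acts trivially on `ker (t - 1) / im (t - 1)` and on `ker (s - 1) / im (s - 1)`. -/
theorem exists_z {p : ℕ} [hp : Fact p.Prime] [CharP F p] (h2 : (2 : F) ≠ 0) (X : Subgroup (V ≃ₗ[F] V)) {t s : V ≃ₗ[F] V}
    (ht : t ∈ X) (hs : s ∈ X)
    (ht2 : ∀ v, t (t v - v) = t v - v) (hs2 : ∀ v, s (s v - v) = s v - v)
    (hnp : ¬ IsPGroup p (Subgroup.closure ({t, s} : Set (V ≃ₗ[F] V)))) :
    ∃ z ∈ X, z * z = 1 ∧ z ≠ 1 ∧ z * t = t * z ∧ z * s = s * z ∧
      (∀ v, t v = v → ∃ v', z v - v = t v' - v') ∧ (∀ v, s v = v → ∃ v', z v - v = s v' - v') := by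
  classical
  have : Finite V := Module.finite_of_finite F
  have : Finite (V ≃ₗ[F] V) := Finite.of_injective (fun g : V ≃ₗ[F] V => (g : V → V)) DFunLike.coe_injective
  have hp2 : p ≠ 2 := by
    rintro rfl
    apply h2
    have := CharP.cast_eq_zero F 2
    exact_mod_cast this
  -- the representation
  let ρ : (V ≃ₗ[F] V) →* Module.End F V :=
    { toFun := fun g => g.toLinearMap
      map_one' := rfl
      map_mul' := fun _ _ => rfl }
  have hρ : Function.Injective ρ := fun a b hab => LinearEquiv.toLinearMap_injective hab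
  set N : Module.End F V := ρ t - 1 with hN
  set K : Module.End F V := ρ s - 1 with hK
  have hNN : N * N = 0 := by
    ext v
    show t (t v - v) - (t v - v) = 0
    rw [ht2, sub_self]
  have hKK : K * K = 0 := by
    ext v
    show s (s v - v) - (s v - v) = 0
    rw [hs2, sub_self]
  obtain ⟨j, hj, hj1, hjj, hjt, hjs⟩ := Cfsg.Agent.H879.QuadPair.exists_involution hp2 ρ hρ (t := t) (s := s)
    (by rw [pow_two]; exact hNN) (by rw [pow_two]; exact hKK) hnp
  -- units
  let R : (V ≃ₗ[F] V) ≃* (Module.End F V)ˣ := (LinearMap.GeneralLinearGroup.generalLinearEquiv F V).symm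
  have hR : ∀ g : V ≃ₗ[F] V, ((R g : (Module.End F V)ˣ) : Module.End F V) = g.toLinearMap := fun g => rfl
  have hS : ∀ u ∈ (R '' ({t, s} : Set (V ≃ₗ[F] V))), IsGen F N K u := by
    rintro _ ⟨g, hg, rfl⟩
    rcases hg with rfl | hg
    · left
      refine ⟨1, ?_⟩
      rw [hR, one_smul, hN]
      show g.toLinearMap = 1 + (g.toLinearMap - 1)
      abel
    · rw [Set.mem_singleton_iff] at hg
      subst hg
      right
      refine ⟨1, ?_⟩
      rw [hR, one_smul, hK]
      show g.toLinearMap = 1 + (g.toLinearMap - 1)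
      abel
  have hjR : R j ∈ Subgroup.closure (R '' ({t, s} : Set (V ≃ₗ[F] V))) := by
    have h1 : (Subgroup.closure ({t, s} : Set (V ≃ₗ[F] V))).map R.toMonoidHom =
        Subgroup.closure (R '' ({t, s} : Set (V ≃ₗ[F] V))) := by
      rw [MonoidHom.map_closure]; rfl
    rw [← h1]
    exact ⟨j, hj, rfl⟩
  obtain ⟨q, hq⟩ := (hasNF_of_mem (F := F) hNN hKK hS hjR).invol h2 (by rw [← map_mul, hjj, map_one])
  have c1 : Commute (ph N K q) N := (N_ph hNN q).symm
  have c2 : Commute (ph N K q) K := (K_ph hKK q).symm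
  have hform : j.toLinearMap = 1 + N * K * ph N K q + K * N * ph N K q := by
    rw [← hR, hq, ph_add, ph_one, ph_mul, ph_X]
    unfold th
    noncomm_ring
  have hjX : j ∈ X := by
    have : Subgroup.closure ({t, s} : Set (V ≃ₗ[F] V)) ≤ X := by
      rw [Subgroup.closure_le]
      rintro x hx
      rcases hx with rfl | hx
      · exact ht
      · rw [Set.mem_singleton_iff] at hx; subst hx; exact hs
    exact this hj
  refine ⟨j, hjX, hjj, hj1, hjt, hjs, ?_, ?_⟩
  · intro v hv
    have hNv : N v = 0 := by show t v - v = 0; rw [hv, sub_self]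
    refine ⟨K (ph N K q v), ?_⟩
    have h3 := LinearMap.congr_fun hform v
    have h4 : N (ph N K q v) = 0 := by
      have := LinearMap.congr_fun c1.eq v
      have h5 : ph N K q (N v) = N (ph N K q v) := this
      rw [← h5, hNv, map_zero]
    have h6 : j v = v + N (K (ph N K q v)) + K (N (ph N K q v)) := h3
    rw [h4, map_zero, add_zero] at h6
    rw [h6, add_sub_cancel_left]
    rfl
  · intro v hv
    have hKv : K v = 0 := by show s v - v = 0; rw [hv, sub_self]
    refine ⟨N (ph N K q v), ?_⟩
    have h3 := LinearMap.congr_fun hform v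
    have h4 : K (ph N K q v) = 0 := by
      have := LinearMap.congr_fun c2.eq v
      have h5 : ph N K q (K v) = K (ph N K q v) := this
      rw [← h5, hKv, map_zero]
    have h6 : j v = v + N (K (ph N K q v)) + K (N (ph N K q v)) := h3
    rw [h4, map_zero, add_zero] at h6
    rw [h6, add_sub_cancel_left]
    rfl

end Cfsg.Agent.H882.Pair
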