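import Cfsg.Agent.H882.Ten.TITwo
import Cfsg.Agent.H882.Ten.Pair

/-!
# Orthogonal tensor products: every overgroup of the tensor group in `E Q` is `E Q` or in the tensor group
-/

set_option autoImplicit false
set_option linter.unusedSimpArgs false
set_option linter.unusedSectionVars false

namespace Cfsg.Agent.H882.Ten

open QuadraticMap hiding proj
open Cfsg.Agent.LieClassical.OrthCore Cfsg.Agent.LieClassical.OrthTrans Cfsg.Agent.H883.Root

section general

variable {F : Type*} {V : Type*} [Field F] [AddCommGroup V] [Module F V]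

theorem pow_char_of_sq {p : ℕ} [CharP F p] {t : V ≃ₗ[F] V} (ht2 : ∀ v, t (t v - v) = t v - v) : t ^ p = 1 := by
  have key : ∀ (n : ℕ) (v : V), (t ^ n) v = v + (n : F) • (t v - v) := by
    intro n
    induction n with
    | zero => intro v; simp
    | succ n ih =>
      intro v
      have h1 : (t ^ (n + 1)) v = t ((t ^ n) v) := by rw [pow_succ']; rfl
      rw [h1, ih, map_add, map_smul, ht2]
      push_cast
      module
  ext v
  rw [key, CharP.cast_eq_zero]
  simp

theorem exists_mem_span_pair {Q : QuadraticForm F V} [FiniteDimensional F V] {M : Submodule F V}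
    (hM : 3 ≤ Module.finrank F M) (w x : V) : ∃ s ∈ M, s ≠ 0 ∧ polar Q w s = 0 ∧ polar Q x s = 0 := by
  let f : M →ₗ[F] F × F := ((polarBilin Q w).prod (polarBilin Q x)) ∘ₗ M.subtype
  have hker : LinearMap.ker f ≠ ⊥ := by
    apply LinearMap.ker_ne_bot_of_finrank_lt
    rw [Module.finrank_prod, Module.finrank_self]
    omega
  obtain ⟨s, hs, hs0⟩ := Submodule.exists_mem_ne_zero_of_ne_bot hker
  have h1 := LinearMap.mem_ker.1 hs
  refine ⟨s, s.2, fun h => hs0 (Subtype.ext h), congrArg Prod.fst h1, congrArg Prod.snd h1⟩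

/-- **A subspace meeting every `L^⊥` inside `L`** (`L` a totally singular line) has dimension at most two. -/
theorem false_of_lines {Q : QuadraticForm F V} [FiniteDimensional F V] (hG : Good Q) {M : Submodule F V}
    (hM : 3 ≤ Module.finrank F M)
    (h : ∀ w x : V, Q w = 0 → Q x = 0 → polar Q w x = 0 → w ≠ 0 → (∀ c : F, x ≠ c • w) →
      ∀ s ∈ M, polar Q w s = 0 → polar Q x s = 0 → ∃ α β : F, s = α • w + β • x) : False := by
  have hnd := hG.nondeg
  -- data attached to a singular vector
  have data : ∀ q, Q q = 0 → q ≠ 0 → ∃ q' z z' y, Hyp Q q q' ∧ Hyp Q z z' ∧ polar Q q z = 0 ∧ polar Q q z' = 0 ∧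
      polar Q q' z = 0 ∧ polar Q q' z' = 0 ∧ polar Q q y = 0 ∧ polar Q q' y = 0 ∧ polar Q z y = 0 ∧ Q y ≠ 0 := by
    intro q hq hq0
    obtain ⟨q', hyp⟩ := LieClassical.OrthTrans.exists_hyp hnd hq hq0
    obtain ⟨z, z', hyp2, h1, h2, h3, h4⟩ := hG.exists_hyp2 hyp
    obtain ⟨a, c, ⟨a1, a2, a3, -⟩, ⟨c1, c2, c3, -⟩, hac⟩ := exists_perp4 hnd hG.dim hyp hyp2 h1 h2 h3 h4
    rcases exists_nonsing hac with h | h | h
    · exact ⟨q', z, z', a, hyp, hyp2, h1, h2, h3, h4, a1, a2, a3, h⟩
    · exact ⟨q', z, z', c, hyp, hyp2, h1, h2, h3, h4, c1, c2, c3, h⟩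
    · exact ⟨q', z, z', a + c, hyp, hyp2, h1, h2, h3, h4, by rw [polar_add_right, a1, c1, add_zero],
        by rw [polar_add_right, a2, c2, add_zero], by rw [polar_add_right, a3, c3, add_zero], h⟩
  have hindz : ∀ q q' z z', Hyp Q q q' → Hyp Q z z' → polar Q q' z = 0 → ∀ c : F, z ≠ c • q := by
    intro q q' z z' hyp hyp2 h3 c hc
    have h5 := h3
    rw [hc, polar_smul_right, hyp.pair'] at h5
    have hc0 : c = 0 := by simpa using h5
    exact hyp2.left_ne (by rw [hc, hc0, zero_smul])
  -- a singular vector outside `M`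
  obtain ⟨q, hq, hqM⟩ : ∃ q, Q q = 0 ∧ q ∉ M := by
    by_contra hcon
    push Not at hcon
    obtain ⟨x0, y0, h0⟩ := hG.exists_hyp
    have hall : ∀ v, v ∈ M := fun v => sing_induction h0 (P := fun v => v ∈ M) (fun a c ha hc => M.add_mem ha hc)
      hcon v
    obtain ⟨q', z, z', y, hyp, hyp2, h1, h2, h3, h4, h5, h6, h7, h8⟩ := data x0 h0.left h0.left_ne
    obtain ⟨α, β, hαβ⟩ := h x0 z h0.left hyp2.left h1 h0.left_ne (hindz _ _ _ _ hyp hyp2 h3) y (hall y) h5 h7
    apply h8
    rw [hαβ, Q_add, QuadraticMap.map_smul, QuadraticMap.map_smul, h0.left, hyp2.left, polar_smul_left,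
      polar_smul_right, h1]
    simp
  have hq0 : q ≠ 0 := by
    rintro rfl
    exact hqM M.zero_mem
  obtain ⟨q', z, z', y, hyp, hyp2, h1, h2, h3, h4, h5, h6, h7, h8⟩ := data q hq hq0
  have claim : ∀ v, polar Q q v = 0 → polar Q q' v = 0 → ∃ α : F, v + α • q ∈ M := by
    intro v
    refine sing_induction_perp hyp2 h1 h2 h3 h4 (P := fun v => ∃ α : F, v + α • q ∈ M) ?_ ?_ v
    · rintro a c _ _ _ _ ⟨α, hα⟩ ⟨β, hβ⟩
      refine ⟨α + β, ?_⟩
      have : a + c + (α + β) • q = (a + α • q) + (c + β • q) := by module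
      rw [this]
      exact M.add_mem hα hβ
    · intro a ha ha1 ha2
      by_cases ha0 : a = 0
      · exact ⟨0, by rw [ha0]; simp⟩
      have hind : ∀ c : F, a ≠ c • q := by
        intro c hc
        rw [hc, polar_smul_right, hyp.pair'] at ha2
        have hc0 : c = 0 := by simpa using ha2
        exact ha0 (by rw [hc, hc0, zero_smul])
      obtain ⟨s, hs, hs0, hs1, hs2⟩ := exists_mem_span_pair (Q := Q) hM q a
      obtain ⟨α, β, hαβ⟩ := h q a hq ha ha1 hq0 hind s hs hs1 hs2
      have hβ : β ≠ 0 := by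
        rintro rfl
        rw [zero_smul, add_zero] at hαβ
        have hα : α ≠ 0 := by
          rintro rfl
          exact hs0 (by rw [hαβ, zero_smul])
        apply hqM
        have : q = α⁻¹ • s := by rw [hαβ, smul_smul, inv_mul_cancel₀ hα, one_smul]
        rw [this]
        exact M.smul_mem _ hs
      refine ⟨β⁻¹ * α, ?_⟩
      have : a + (β⁻¹ * α) • q = β⁻¹ • s := by
        rw [hαβ, smul_add, smul_smul, smul_smul, inv_mul_cancel₀ hβ, one_smul, add_comm]
      rw [this]
      exact M.smul_mem _ hs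
  obtain ⟨α, hα⟩ := claim y h5 h6
  have hzq : polar Q z q = 0 := by rw [polar_comm]; exact h1
  obtain ⟨a, b, hab⟩ := h q z hq hyp2.left h1 hq0 (hindz _ _ _ _ hyp hyp2 h3) _ hα
    (by rw [polar_add_right, h5, polar_smul_right, polar_self_of_sing hq]; simp)
    (by rw [polar_add_right, h7, polar_smul_right, hzq]; simp)
  apply h8
  have e1 : Q (y + α • q) = Q y := by
    rw [Q_add, QuadraticMap.map_smul, hq, polar_smul_right, polar_comm Q y q, h5]; simp
  rw [← e1, hab, Q_add, QuadraticMap.map_smul, QuadraticMap.map_smul, hq, hyp2.left, polar_smul_left,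
    polar_smul_right, h1]
  simp

end general

variable {F : Type*} {U : Type*} {W : Type*} {V : Type*} [Field F] [AddCommGroup U] [Module F U]
  [AddCommGroup W] [Module F W] [AddCommGroup V] [Module F V]
  {t : U →ₗ[F] W →ₗ[F] V} {QU : QuadraticForm F U} {QW : QuadraticForm F W} {Q : QuadraticForm F V}
  {X : Subgroup (V ≃ₗ[F] V)}

/-- expansion in a basis of `U` -/
theorem expand_basis (ht : IsTensorProduct t) {ι : Type*} [Fintype ι] (b : Module.Basis ι F U) (v : V) :
    v = ∑ i, t (b i) (cU ht (b.coord i) v) := by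
  classical
  have : LinearMap.id = ∑ i, (t (b i)) ∘ₗ cU ht (b.coord i) := by
    refine ext_t ht fun u w => ?_
    rw [LinearMap.sum_apply]
    simp only [LinearMap.comp_apply, cU_apply, LinearMap.id_apply, map_smul, Module.Basis.coord_apply]
    conv_lhs => rw [← b.sum_repr u]
    rw [map_sum, LinearMap.sum_apply]
    refine Finset.sum_congr rfl fun i _ => ?_
    rw [map_smul, LinearMap.smul_apply]
  have h := LinearMap.congr_fun this v
  rw [LinearMap.sum_apply] at h
  exact h

/-- The vectors with all left contractions in `M`. -/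
def RR (ht : IsTensorProduct t) (M : Submodule F W) : Submodule F V where
  carrier := {v | ∀ φ : U →ₗ[F] F, cU ht φ v ∈ M}
  add_mem' := by
    intro a b ha hb φ
    rw [map_add]
    exact M.add_mem (ha φ) (hb φ)
  zero_mem' := by
    intro φ
    rw [map_zero]
    exact M.zero_mem
  smul_mem' := by
    intro c a ha φ
    rw [map_smul]
    exact M.smul_mem c (ha φ)

theorem finrank_RR_le (ht : IsTensorProduct t) [FiniteDimensional F U] [FiniteDimensional F W] (M : Submodule F W) :
    Module.finrank F (RR ht M) ≤ Module.finrank F U * Module.finrank F M := by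
  classical
  let b := Module.finBasis F U
  let f : RR ht M →ₗ[F] (Fin (Module.finrank F U) → M) :=
    LinearMap.pi fun i => ((cU ht (b.coord i)) ∘ₗ (RR ht M).subtype).codRestrict M fun v => v.2 _
  have hf : Function.Injective f := by
    rw [← LinearMap.ker_eq_bot, LinearMap.ker_eq_bot']
    intro v hv
    apply Subtype.ext
    rw [expand_basis ht b (v : V)]
    refine Finset.sum_eq_zero fun i _ => ?_
    have h1 := congrArg Subtype.val (congrFun hv i)
    have h2 : cU ht (b.coord i) (v : V) = 0 := h1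
    rw [h2, map_zero]
  have h1 := LinearMap.finrank_le_finrank_of_injective hf
  rw [Module.finrank_pi_fintype] at h1
  simpa using h1

namespace TSt

variable (S : TSt t QU QW Q)

include S

/-- **The shape of the involution.** -/
theorem invol_shape [FiniteDimensional F W] (hW : Good QW) {w x : W} (hw : QW w = 0) (hx : QW x = 0)
    (hwx : polar QW w x = 0) (hw0 : w ≠ 0) (hind : ∀ c : F, x ≠ c • w) {z : V ≃ₗ[F] V}
    (hzT : z ∈ TT t S.ten) (hzO : z ∈ O Q) [Nontrivial U]
    (hzz : z * z = 1) (hz1 : z ≠ 1) (hzd : z * Ten.rW S.ten (siegel QW w x hw hwx) =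
      Ten.rW S.ten (siegel QW w x hw hwx) * z)
    (hzv : ∀ v, Ten.rW S.ten (siegel QW w x hw hwx) v = v → ∃ v', z v - v =
      Ten.rW S.ten (siegel QW w x hw hwx) v' - v') :
    ∃ l : W →ₗ[F] W, (∀ u y, z (t u y) = t u (l y)) ∧ l w = -w ∧ l x = -x ∧
      ∀ y, polar QW w y = 0 → polar QW x y = 0 → ∃ α β : F, l y - y = α • w + β • x := by
  obtain ⟨k, l0, hkl⟩ := hzT
  have hzt : ∀ u y, z (t u y) = t (k u) (l0 y) := fun u y => by rw [hkl, tm_apply]
  have hwx' : polar QW x w = 0 := by rw [polar_comm]; exact hwx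
  -- fixed vectors of `d`
  have hfix : ∀ u y, polar QW w y = 0 → polar QW x y = 0 →
      ∃ v', z (t u y) - t u y = t (S.cw w v') x - t (S.cw x v') w := by
    intro u y h1 h2
    obtain ⟨v', hv'⟩ := hzv (t u y) (by rw [rW_apply, siegel_apply, h1, h2]; simp)
    exact ⟨v', by rw [hv', S.siegel_sub hw hx hwx]⟩
  -- `k` is a scalar
  have hksc : ∀ u, ∃ c : F, k u = c • u := by
    intro u
    by_contra hcon
    push Not at hcon
    obtain ⟨φ, hφ1, hφ2⟩ := exists_ne_of_ne hcon
    have hl0 : ∀ y, polar QW w y = 0 → polar QW x y = 0 → l0 y ∈ Submodule.span F {w, x} := by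
      intro y h1 h2
      obtain ⟨v', hv'⟩ := hfix u y h1 h2
      have h3 := congrArg (cU S.ten φ) hv'
      rw [hzt, map_sub, map_sub, cU_apply, cU_apply, cU_apply, cU_apply, hφ1, zero_smul, sub_zero] at h3
      have h4 : l0 y = (φ (k u))⁻¹ • (φ (S.cw w v') • x - φ (S.cw x v') • w) := by
        rw [← h3, smul_smul, inv_mul_cancel₀ hφ2, one_smul]
      rw [h4]
      refine Submodule.smul_mem _ _ (Submodule.sub_mem _ (Submodule.smul_mem _ _ (Submodule.subset_span (by simp)))
        (Submodule.smul_mem _ _ (Submodule.subset_span (by simp))))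
    let f : W →ₗ[F] F × F := (polarBilin QW w).prod (polarBilin QW x)
    have h1 := LinearMap.finrank_range_add_finrank_ker f
    have h2 : Module.finrank F (LinearMap.range f) ≤ 2 := by
      refine le_trans (Submodule.finrank_le _) ?_
      rw [Module.finrank_prod, Module.finrank_self]
    have h3 : (LinearMap.ker f).map (l0 : W →ₗ[F] W) ≤ Submodule.span F {w, x} := by
      rintro _ ⟨y, hy, rfl⟩
      have h4 := LinearMap.mem_ker.1 hy
      exact hl0 y (congrArg Prod.fst h4) (congrArg Prod.snd h4)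
    have h4 := Submodule.finrank_mono h3
    have h5 : Module.finrank F ((LinearMap.ker f).map (l0 : W →ₗ[F] W)) = Module.finrank F (LinearMap.ker f) :=
      LinearEquiv.finrank_map_eq l0 _
    have h6 : Module.finrank F (Submodule.span F {w, x}) ≤ 2 := by
      classical
      refine (finrank_span_le_card ({w, x} : Set W)).trans ?_
      rw [Set.toFinset_insert, Set.toFinset_singleton]
      exact Finset.card_le_two
    have := hW.dim
    omega
  obtain ⟨c, hc⟩ := scalar_of_all (k : U →ₗ[F] U) hksc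
  have hc' : ∀ u, k u = c • u := hc
  let l : W →ₗ[F] W := c • (l0 : W →ₗ[F] W)
  have hzl : ∀ u y, z (t u y) = t u (l y) := by
    intro u y
    rw [hzt, hc', map_smul, LinearMap.smul_apply]
    show _ = t u (c • l0 y)
    rw [map_smul]
  obtain ⟨u0, hu0⟩ := exists_ne (0 : U)
  obtain ⟨u1, hu1⟩ := S.ndU.exists_polar_eq hu0 1
  obtain ⟨φ, hφ⟩ := Module.Projective.exists_dual_ne_zero F hu0
  have hll : ∀ y, l (l y) = y := by
    intro y
    refine t_right_inj S.ten hu0 ?_
    rw [← hzl, ← hzl]
    exact LinearEquiv.congr_fun hzz (t u0 y)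
  have hlO : ∀ y y', polar QW (l y) (l y') = polar QW y y' := by
    intro y y'
    have h1 := polar_map hzO (t u0 y) (t u1 y')
    rw [hzl, hzl, S.pol, S.pol, hu1, one_mul, one_mul] at h1
    exact h1
  have hlL : ∀ y, polar QW w y = 0 → polar QW x y = 0 → ∃ α β : F, l y - y = α • w + β • x := by
    intro y h1 h2
    obtain ⟨v', hv'⟩ := hfix u0 y h1 h2
    have h3 := congrArg (cU S.ten φ) hv'
    rw [hzl, map_sub, map_sub, cU_apply, cU_apply, cU_apply, cU_apply, ← smul_sub] at h3
    have h3' : (φ u0)⁻¹ • φ u0 • (l y - y) = (φ u0)⁻¹ • (φ (S.cw w v') • x - φ (S.cw x v') • w) := by rw [h3]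
    rw [smul_smul, inv_mul_cancel₀ hφ, one_smul] at h3'
    refine ⟨-((φ u0)⁻¹ * φ (S.cw x v')), (φ u0)⁻¹ * φ (S.cw w v'), ?_⟩
    rw [h3']
    module
  -- commutation with `d`
  have hcomm : ∀ y, polar QW w y • l x - polar QW x y • l w = polar QW (l w) y • x - polar QW (l x) y • w := by
    intro y
    have h1 := LinearEquiv.congr_fun hzd (t u0 y)
    have h2 : z (Ten.rW S.ten (siegel QW w x hw hwx) (t u0 y)) =
      Ten.rW S.ten (siegel QW w x hw hwx) (z (t u0 y)) := h1
    rw [rW_apply, hzl, hzl, rW_apply] at h2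
    have h3 := t_right_inj S.ten hu0 h2
    rw [siegel_apply, siegel_apply, hx] at h3
    have e1 : polar QW w (l y) = polar QW (l w) y := by rw [← hlO, hll]
    have e2 : polar QW x (l y) = polar QW (l x) y := by rw [← hlO, hll]
    rw [e1, e2] at h3
    simp only [map_add, map_sub, map_smul, zero_mul, zero_smul, sub_zero] at h3
    have h4 : l y + (polar QW w y • l x - polar QW x y • l w) =
        l y + (polar QW (l w) y • x - polar QW (l x) y • w) := by
      rw [← add_sub_assoc, h3]; abel
    exact add_left_cancel h4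
  obtain ⟨a, b, hab⟩ := hlL w (polar_self_of_sing hw) hwx'
  obtain ⟨a', b', hab'⟩ := hlL x hwx (polar_self_of_sing hx)
  obtain ⟨y1, hy1, hy1'⟩ := exists_sep S.ndW hind
  have hind' : ∀ c : F, w ≠ c • x := by
    intro c hc
    have hc0 : c ≠ 0 := by
      rintro rfl
      exact hw0 (by rw [hc, zero_smul])
    exact hind c⁻¹ (by rw [hc, smul_smul, inv_mul_cancel₀ hc0, one_smul])
  obtain ⟨y2, hy2, hy2'⟩ := exists_sep S.ndW hind'
  -- independence
  have indep : ∀ α β : F, α • w + β • x = 0 → α = 0 ∧ β = 0 := by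
    intro α β h
    have h1 := congrArg (fun v => polar QW v y1) h
    have h2 := congrArg (fun v => polar QW v y2) h
    simp only [polar_add_left, polar_smul_left, hy1, hy1', hy2, hy2',
      polar_zero_left, smul_eq_mul, mul_zero, mul_one, zero_add, add_zero] at h1 h2
    exact ⟨h2, h1⟩
  have hlw : l w = (1 + a) • w + b • x := by
    have : l w = w + (l w - w) := by abel
    rw [this, hab]; module
  have hlx : l x = a' • w + (1 + b') • x := by
    have : l x = x + (l x - x) := by abel
    rw [this, hab']; module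
  have c1 := hcomm y1
  have c2 := hcomm y2
  rw [hlw, hlx] at c1 c2
  simp only [polar_add_left, polar_smul_left, hy1, hy1', hy2, hy2', smul_eq_mul, mul_zero, mul_one, zero_add,
    add_zero, zero_smul, one_smul, zero_sub, sub_zero] at c1 c2
  have d1 := indep ((1 + a) - (1 + b')) (2 * b) (by
    have : ((1 + a) - (1 + b')) • w + (2 * b) • x = (b • x - (1 + b') • w) - -((1 + a) • w + b • x) := by module
    rw [this, ← c1, sub_self])
  have d2 := indep (2 * a') ((1 + b') - (1 + a)) (by
    have : (2 * a') • w + ((1 + b') - (1 + a)) • x = (a' • w + (1 + b') • x) - ((1 + a) • x - a' • w) := by module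
    rw [this, ← c2, sub_self])
  have hb0 : b = 0 := (mul_eq_zero.1 d1.2).resolve_left S.two
  have ha'0 : a' = 0 := (mul_eq_zero.1 d2.1).resolve_left S.two
  have hbb : 1 + b' = 1 + a := sub_eq_zero.1 d2.2
  rw [hb0, zero_smul, add_zero] at hlw
  rw [ha'0, zero_smul, zero_add, hbb] at hlx
  have hsq : (1 + a) * (1 + a) = 1 := by
    have h1 := hll w
    rw [hlw, map_smul, hlw, smul_smul] at h1
    have h2 := indep ((1 + a) * (1 + a) - 1) 0 (by rw [zero_smul, add_zero, sub_smul, h1, one_smul, sub_self])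
    exact sub_eq_zero.1 h2.1
  have hcase : 1 + a = 1 ∨ 1 + a = -1 := mul_self_eq_one_iff.1 hsq
  rcases hcase with h | h
  · exfalso
    rw [h, one_smul] at hlw hlx
    -- `l = 1` on `L^⊥`
    have h1 : ∀ y, polar QW w y = 0 → polar QW x y = 0 → l y = y := by
      intro y hy hy'
      obtain ⟨α, β, hαβ⟩ := hlL y hy hy'
      have h2 : l (l y - y) = l y - y := by rw [hαβ, map_add, map_smul, map_smul, hlw, hlx]
      rw [map_sub, hll] at h2
      have h3 : (2 : F) • (l y - y) = 0 := by
        have : (2 : F) • (l y - y) = (l y - y) - (y - l y) := by module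
        rw [this, h2, sub_self]
      exact sub_eq_zero.1 ((smul_eq_zero.1 h3).resolve_left S.two)
    have h2 : ∀ y, l y = y := by
      intro y
      have h3 : l (l y - y) = l y - y := by
        apply h1
        · rw [polar_sub_right]
          have : polar QW w (l y) = polar QW (l w) y := by rw [← hlO, hll]
          rw [this, hlw, sub_self]
        · rw [polar_sub_right]
          have : polar QW x (l y) = polar QW (l x) y := by rw [← hlO, hll]
          rw [this, hlx, sub_self]
      rw [map_sub, hll] at h3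
      have h4 : (2 : F) • (l y - y) = 0 := by
        have : (2 : F) • (l y - y) = (l y - y) - (y - l y) := by module
        rw [this, h3, sub_self]
      exact sub_eq_zero.1 ((smul_eq_zero.1 h4).resolve_left S.two)
    apply hz1
    refine ext_t' S.ten fun u y => ?_
    rw [hzl, h2]
    rfl
  · rw [h] at hlw hlx
    exact ⟨l, hzl, by rw [hlw]; module, by rw [hlx]; module, hlL⟩

/-- **Main theorem**: a proper overgroup of the tensor group is contained in the tensor group. -/
theorem le_TT [Finite F] [FiniteDimensional F U] [FiniteDimensional F W] [FiniteDimensional F V]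
    (hX : Prop1 S X) (hab : Module.finrank F U < Module.finrank F W) : X ≤ TT t S.ten := by
  intro g hg
  by_contra hgT
  have hO := S.ovg hX
  have hgO := hO.le hg
  have hUn : Nontrivial U := Module.nontrivial_of_finrank_pos (R := F) (by have := hX.dU; omega)
  have hgg : ∀ v, g (g⁻¹ v) = v := fun v => LinearEquiv.apply_symm_apply g _
  have hgg' : ∀ v, g⁻¹ (g v) = v := fun v => LinearEquiv.symm_apply_apply g _
  obtain ⟨p, hp⟩ := CharP.exists F
  have hpp : p.Prime := CharP.char_is_prime F p
  have hpf : Fact p.Prime := ⟨hpp⟩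
  have : Finite V := Module.finite_of_finite F
  have hfin : Finite (V ≃ₗ[F] V) :=
    Finite.of_injective (fun g : V ≃ₗ[F] V => (g : V → V)) DFunLike.coe_injective
  -- the base line
  obtain ⟨w0, w0', hyp0⟩ := hX.hW.exists_hyp
  obtain ⟨x0, x0', hyp1, q1, q2, q3, q4⟩ := hX.hW.exists_hyp2 hyp0
  have hind0 : ∀ c : F, x0 ≠ c • w0 := by
    intro c hc
    have h5 := q3
    rw [hc, polar_smul_right, hyp0.pair'] at h5
    have hc0 : c = 0 := by simpa using h5
    exact hyp1.left_ne (by rw [hc, hc0, zero_smul])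
  set d0 := Ten.rW S.ten (siegel QW w0 x0 hyp0.left q1) with hd0
  have hd0X : d0 ∈ X := hO.rW _ (siegel_mem_E _ _)
  -- `d² ` facts
  have hdsq : ∀ (w x : W) (hw : QW w = 0) (hx : QW x = 0) (hwx : polar QW w x = 0) (v : V),
      Ten.rW S.ten (siegel QW w x hw hwx) (Ten.rW S.ten (siegel QW w x hw hwx) v - v) =
        Ten.rW S.ten (siegel QW w x hw hwx) v - v := by
    intro w x hw hx hwx v
    have h1 := S.siegel_sub_sq hw hwx v
    rw [hx, mul_zero, neg_zero, zero_smul] at h1
    exact sub_eq_zero.1 h1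
  have hTI : ∀ (w x : W) (hw : QW w = 0) (_ : QW x = 0) (hwx : polar QW w x = 0) (_ : w ≠ 0)
      (_ : ∀ c : F, x ≠ c • w) (h : V ≃ₗ[F] V), h ∈ X →
      h * Ten.rW S.ten (siegel QW w x hw hwx) * h⁻¹ ∈ TT t S.ten → h ∈ TT t S.ten :=
    fun w x hw hx hwx hw0 hind h hh hhT => S.mem_TT_of_conj hX hab hw hx hwx hw0 hind hh hhT
  set s := g * d0 * g⁻¹ with hs
  have hsX : s ∈ X := X.mul_mem (X.mul_mem hg hd0X) (X.inv_mem hg)
  have hsv : ∀ v, s v = g (d0 (g⁻¹ v)) := fun v => rfl
  have hs2 : ∀ v, s (s v - v) = s v - v := by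
    intro v
    have h5 : g (d0 (g⁻¹ v) - g⁻¹ v) = s v - v := by rw [map_sub g, hgg, hsv]
    rw [← h5, hsv, hgg', hdsq w0 x0 hyp0.left hyp1.left q1]
  -- the support of `g (U ⊗ L₀)`
  let M : Submodule F W := Submodule.span F {y | ∃ (φ : U →ₗ[F] F) (u : U), y = cU S.ten φ (g (t u w0)) ∨
    y = cU S.ten φ (g (t u x0))}
  -- the main property
  have hmain : ∀ w x : W, QW w = 0 → QW x = 0 → polar QW w x = 0 → w ≠ 0 → (∀ c : F, x ≠ c • w) →
      ∀ y ∈ M, polar QW w y = 0 → polar QW x y = 0 → ∃ α β : F, y = α • w + β • x := by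
    intro w x hw hx hwx hw0 hind
    set d := Ten.rW S.ten (siegel QW w x hw hwx) with hd
    have hdX : d ∈ X := hO.rW _ (siegel_mem_E _ _)
    have hd2 := hdsq w x hw hx hwx
    rw [← hd] at hd2
    have hnp : ¬ IsPGroup p (Subgroup.closure ({d, s} : Set (V ≃ₗ[F] V))) := by
      intro hpg
      have hle : Subgroup.closure ({d, s} : Set (V ≃ₗ[F] V)) ≤ X := by
        rw [Subgroup.closure_le]
        rintro y (rfl | hy)
        · exact hdX
        · rw [Set.mem_singleton_iff] at hy; subst hy; exact hsX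
      have h1 := Cfsg.Agent.H891.QP.pgroup_le hpp X (TT t S.ten ⊓ X) {d}
        (by rintro y rfl; exact ⟨⟨tm_mem_TT _ _ _, hdX⟩, 1, by rw [pow_one]; exact pow_char_of_sq hd2⟩)
        (by rintro y rfl; exact hdX)
        (by
          rintro y rfl h hh hhT
          exact ⟨hTI w x hw hx hwx hw0 hind h hh hhT.1, hh⟩)
        (s := d) rfl (Subgroup.closure ({d, s} : Set (V ≃ₗ[F] V))) hle hpg (Subgroup.subset_closure (by simp))
      have h2 := (h1 (Subgroup.subset_closure (by simp : s ∈ ({d, s} : Set (V ≃ₗ[F] V))))).1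
      exact hgT (hTI w0 x0 hyp0.left hyp1.left q1 hyp0.left_ne hind0 g hg h2)
    obtain ⟨z, hzX, hzz, hz1, hzd, hzs, hz2, hz3⟩ := Pair.exists_z S.two X hdX hsX hd2 hs2 hnp
    have hzT : z ∈ TT t S.ten := by
      refine hTI w x hw hx hwx hw0 hind z hzX ?_
      rw [← hd, hzd, mul_inv_cancel_right]
      exact tm_mem_TT _ _ _
    obtain ⟨l, hl, hlw, hlx, hlL⟩ := S.invol_shape hX.hW hw hx hwx hw0 hind hzT (hO.le hzX) hzz hz1 hzd hz2
    -- the conjugate
    set z' := g⁻¹ * z * g with hz'
    have hz'X : z' ∈ X := X.mul_mem (X.mul_mem (X.inv_mem hg) hzX) hg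
    have hz'd : z' * d0 = d0 * z' := by
      have h1 : z * (g * d0 * g⁻¹) = (g * d0 * g⁻¹) * z := hzs
      calc z' * d0 = g⁻¹ * (z * (g * d0 * g⁻¹)) * g := by rw [hz']; group
        _ = g⁻¹ * ((g * d0 * g⁻¹) * z) * g := by rw [h1]
        _ = d0 * z' := by rw [hz']; group
    have hz'T : z' ∈ TT t S.ten := by
      refine hTI w0 x0 hyp0.left hyp1.left q1 hyp0.left_ne hind0 z' hz'X ?_
      rw [← hd0, hz'd, mul_inv_cancel_right]
      exact tm_mem_TT _ _ _
    have hz'z' : z' * z' = 1 := by
      calc z' * z' = g⁻¹ * (z * z) * g := by rw [hz']; group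
        _ = 1 := by rw [hzz]; group
    have hz'1 : z' ≠ 1 := by
      intro h
      apply hz1
      calc z = g * z' * g⁻¹ := by rw [hz']; group
        _ = 1 := by rw [h]; group
    have hz'v : ∀ v, z' v = g⁻¹ (z (g v)) := fun v => rfl
    obtain ⟨l', hl', hl'w, hl'x, -⟩ := S.invol_shape hX.hW hyp0.left hyp1.left q1 hyp0.left_ne hind0 hz'T
      (hO.le hz'X) hz'z' hz'1 hz'd (by
        intro v hv
        have h1 : s (g v) = g v := by rw [hsv, hgg', hv]
        obtain ⟨v', hv'⟩ := hz3 (g v) h1
        refine ⟨g⁻¹ v', ?_⟩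
        rw [hz'v]
        have h2 := congrArg (g⁻¹ : V ≃ₗ[F] V) hv'
        rw [map_sub, map_sub, hsv, hgg', hgg'] at h2
        exact h2)
    have hzg0 : ∀ u, z (g (t u w0)) = - g (t u w0) := by
      intro u
      have h1 := hl' u w0
      rw [hz'v, hl'w] at h1
      have h2 := congrArg g h1
      rw [hgg] at h2
      rw [h2, map_neg, map_neg]
    have hzgx : ∀ u, z (g (t u x0)) = - g (t u x0) := by
      intro u
      have h1 := hl' u x0
      rw [hz'v, hl'x] at h1
      have h2 := congrArg g h1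
      rw [hgg] at h2
      rw [h2, map_neg, map_neg]
    have hcz : ∀ (φ : U →ₗ[F] F) v, cU S.ten φ (z v) = l (cU S.ten φ v) := by
      intro φ
      have : cU S.ten φ ∘ₗ (z : V →ₗ[F] V) = l ∘ₗ cU S.ten φ := by
        refine ext_t S.ten fun u y => ?_
        show cU S.ten φ (z (t u y)) = l (cU S.ten φ (t u y))
        rw [hl, cU_apply, cU_apply, map_smul]
      exact fun v => LinearMap.congr_fun this v
    have hneg : ∀ y ∈ M, l y = -y := by
      intro y hy
      induction hy using Submodule.span_induction with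
      | mem y hy =>
        obtain ⟨φ, u, h | h⟩ := hy
        · rw [h, ← hcz, hzg0, map_neg]
        · rw [h, ← hcz, hzgx, map_neg]
      | zero => simp
      | add a b _ _ ha hb => rw [map_add, ha, hb]; abel
      | smul c a _ ha => rw [map_smul, ha, smul_neg]
    intro y hy h1 h2
    obtain ⟨α, β, hαβ⟩ := hlL y h1 h2
    rw [hneg y hy] at hαβ
    have h3 : y = (-(2 : F)⁻¹) • (-y - y) := by
      have : (-(2 : F)⁻¹) • (-y - y) = ((2 : F)⁻¹ * 2) • y := by module
      rw [this, inv_mul_cancel₀ S.two, one_smul]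
    refine ⟨-(2 : F)⁻¹ * α, -(2 : F)⁻¹ * β, ?_⟩
    rw [h3, hαβ]
    module
  -- the dimension of `M`
  have hM : 3 ≤ Module.finrank F M := by
    by_contra hlt
    push Not at hlt
    let f : (U × U) →ₗ[F] V := (g : V →ₗ[F] V) ∘ₗ ((t.flip w0).coprod (t.flip x0))
    have hf : ∀ a b, f (a, b) = g (t a w0 + t b x0) := fun a b => by simp [f]
    have hfinj : Function.Injective f := by
      rw [← LinearMap.ker_eq_bot, LinearMap.ker_eq_bot']
      rintro ⟨a, b⟩ hab'
      rw [hf] at hab'
      have h1 : t a w0 + t b x0 = 0 := g.injective (by rw [hab', map_zero])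
      have h2 := congrArg (S.cw w0') h1
      have h3 := congrArg (S.cw x0') h1
      have e1 : polar QW x0' w0 = 0 := by rw [polar_comm]; exact q2
      have e2 : polar QW w0' x0 = 0 := q3
      simp only [map_add, S.cw_t, hyp0.pair', hyp1.pair', e1, e2, zero_smul, one_smul, add_zero, zero_add,
        map_zero] at h2 h3
      rw [h2, h3]; rfl
    have hle : LinearMap.range f ≤ RR S.ten M := by
      rintro _ ⟨⟨a, b⟩, rfl⟩
      intro φ
      rw [hf, map_add, map_add]
      exact M.add_mem (Submodule.subset_span ⟨φ, a, Or.inl rfl⟩) (Submodule.subset_span ⟨φ, b, Or.inr rfl⟩)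
    have e1 := LinearMap.finrank_range_of_inj hfinj
    rw [Module.finrank_prod] at e1
    have e2 := finrank_RR_le S.ten M
    have e3 : Module.finrank F U * Module.finrank F M ≤ Module.finrank F U * 2 :=
      Nat.mul_le_mul_left _ (by omega)
    have heq : LinearMap.range f = RR S.ten M := Submodule.eq_of_le_of_finrank_le hle (by omega)
    -- a nonzero vector of `M`
    obtain ⟨u0, hu0⟩ := exists_ne (0 : U)
    have hne : g (t u0 w0) ≠ 0 := by
      intro h
      exact t_ne S.ten hu0 hyp0.left_ne (g.injective (by rw [h, map_zero]))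
    let bb := Module.finBasis F U
    obtain ⟨i, hi⟩ : ∃ i, cU S.ten (bb.coord i) (g (t u0 w0)) ≠ 0 := by
      by_contra hcon
      push Not at hcon
      apply hne
      rw [expand_basis S.ten bb (g (t u0 w0))]
      exact Finset.sum_eq_zero fun i _ => by rw [hcon i, map_zero]
    set y := cU S.ten (bb.coord i) (g (t u0 w0)) with hy
    have hyM : y ∈ M := Submodule.subset_span ⟨_, _, Or.inl rfl⟩
    apply hgT
    refine S.mem_TT_of_line hX hyp0.left hyp1.left q1 hind0 hyp0.left_ne hg hi fun u => ?_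
    have h1 : t u y ∈ RR S.ten M := by
      intro φ
      rw [cU_apply]
      exact M.smul_mem _ hyM
    rw [← heq] at h1
    obtain ⟨⟨a, b⟩, hab'⟩ := h1
    rw [hf] at hab'
    refine ⟨a, b, ?_⟩
    rw [← hab', hgg']
  exact false_of_lines hX.hW hM hmain

end TSt

end Cfsg.Agent.H882.Ten
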