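import Cfsg.Agent.H882.Ten.Stab

/-!
# The root elements `1 ⊗ siegel w x` are TI in a proper overgroup (`dim U < dim W`)
-/

set_option autoImplicit false
set_option linter.unusedSimpArgs false
set_option linter.unusedSectionVars false

namespace Cfsg.Agent.H882.Ten

open QuadraticMap hiding proj
open Cfsg.Agent.LieClassical.OrthCore Cfsg.Agent.LieClassical.OrthTrans Cfsg.Agent.H883.Root

section scal

variable {F : Type*} {V : Type*} [Field F] [AddCommGroup V] [Module F V]

/-- A linear map all of whose vectors are eigenvectors is a scalar. -/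
theorem scalar_of_all (k : V →ₗ[F] V) (h : ∀ v, ∃ c : F, k v = c • v) : ∃ c : F, ∀ v, k v = c • v := by
  by_cases hV : ∃ v : V, v ≠ 0
  · obtain ⟨v, hv⟩ := hV
    obtain ⟨c, hc⟩ := h v
    refine ⟨c, fun v' => ?_⟩
    by_cases hdep : ∃ a : F, v' = a • v
    · obtain ⟨a, rfl⟩ := hdep
      rw [map_smul, hc, smul_comm]
    · push Not at hdep
      obtain ⟨d, hd⟩ := h v'
      obtain ⟨e, he⟩ := h (v + v')
      rw [map_add, hc, hd] at he
      obtain ⟨φ, h1, h2⟩ := exists_ne_of_ne hdep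
      have h3 := congrArg φ he
      simp only [map_add, map_smul, h1, smul_eq_mul, mul_zero, zero_add] at h3
      have h4 : d = e := mul_right_cancel₀ h2 h3
      have h5 : (c - e) • v = 0 := by
        rw [h4] at he
        have : (c - e) • v = c • v + e • v' - e • (v + v') := by module
        rw [this, he, sub_self]
      have h6 : c = e := sub_eq_zero.1 ((smul_eq_zero.1 h5).resolve_right hv)
      rw [hd, h4, h6]
  · push Not at hV
    exact ⟨0, fun v => by rw [hV v]; simp⟩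

end scal

variable {F : Type*} {U : Type*} {W : Type*} {V : Type*} [Field F] [AddCommGroup U] [Module F U]
  [AddCommGroup W] [Module F W] [AddCommGroup V] [Module F V]
  {t : U →ₗ[F] W →ₗ[F] V} {QU : QuadraticForm F U} {QW : QuadraticForm F W} {Q : QuadraticForm F V}
  {X : Subgroup (V ≃ₗ[F] V)}

/-- If `k ⊗ l` fixes `U ⊗ w` pointwise then it is `1 ⊗ l'`. -/
theorem exists_rW_of_fix (ht : IsTensorProduct t) [Nontrivial U] {k : U ≃ₗ[F] U} {l : W ≃ₗ[F] W} {w : W} (hw : w ≠ 0)
    (h : ∀ u, tm ht k l (t u w) = t u w) : ∃ l' : W →ₗ[F] W, ∀ u z, tm ht k l (t u z) = t u (l' z) := by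
  have hlw : l w ≠ 0 := fun h0 => hw (l.injective (by rw [h0, map_zero]))
  obtain ⟨c, hc⟩ := scalar_of_all (k : U →ₗ[F] U) (by
    intro u
    by_contra hcon
    push Not at hcon
    by_cases hu : u = 0
    · exact hcon 0 (by rw [hu]; simp)
    have h1 := h u
    rw [tm_apply] at h1
    have h2 : t u (-w) + t (k u) (l w) = 0 := by rw [h1, map_neg]; abel
    exact hlw (eq_zero_of_add ht h2 hcon))
  refine ⟨c • (l : W →ₗ[F] W), fun u z => ?_⟩
  have : k u = c • u := hc u
  rw [tm_apply, this, map_smul, LinearMap.smul_apply, LinearMap.smul_apply, map_smul]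
  rfl

namespace TSt

variable (S : TSt t QU QW Q)

include S

theorem siegel_sub_sq {w y : W} (hw : QW w = 0) (hy : polar QW w y = 0) (v : V) :
    Ten.rW S.ten (siegel QW w y hw hy) (Ten.rW S.ten (siegel QW w y hw hy) v - v) -
      (Ten.rW S.ten (siegel QW w y hw hy) v - v) = (-(2 * QW y)) • t (S.cw w v) w := by
  have : ((Ten.rW S.ten (siegel QW w y hw hy) : V →ₗ[F] V) - LinearMap.id) ∘ₗ
      ((Ten.rW S.ten (siegel QW w y hw hy) : V →ₗ[F] V) - LinearMap.id) =
      (-(2 * QW y)) • (t.flip w ∘ₗ S.cw w) := by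
    refine ext_t S.ten fun u z => ?_
    simp only [LinearMap.comp_apply, LinearMap.sub_apply, LinearMap.id_apply, LinearEquiv.coe_coe, map_sub,
      rW_apply, LinearMap.smul_apply, LinearMap.flip_apply, S.cw_t]
    have e : siegel QW w y hw hy (siegel QW w y hw hy z) - siegel QW w y hw hy z -
        (siegel QW w y hw hy z - z) = (-(2 * QW y) * polar QW w z) • w := by
      have h1 : polar QW y w = 0 := by rw [polar_comm]; exact hy
      simp only [siegel_apply, polar_sub_right, polar_add_right, polar_smul_right, hy, h1,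
        polar_self_of_sing hw, polar_self' y, smul_eq_mul]
      module
    have h := congrArg (t u) e
    simp only [map_sub, map_smul] at h ⊢
    rw [h]
    simp only [LinearMap.smul_apply]
    module
  have h1 := LinearMap.congr_fun this v
  exact h1

/-- **Elements moving `U ⊗ L` to a subspace containing some `U ⊗ w₂`.** -/
theorem mem_TT_of_line [Finite F] [FiniteDimensional F U] [FiniteDimensional F W] [FiniteDimensional F V]
    (hX : Prop1 S X) {w x : W} (hw : QW w = 0) (hx : QW x = 0) (hwx : polar QW w x = 0)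
    (hind : ∀ c : F, x ≠ c • w) (hw0 : w ≠ 0) {g : V ≃ₗ[F] V} (hg : g ∈ X) {w2 : W} (hw2 : w2 ≠ 0)
    (hgw : ∀ u, ∃ u1 u2, g⁻¹ (t u w2) = t u1 w + t u2 x) : g ∈ TT t S.ten := by
  have hO := S.ovg hX
  have hgO := hO.le hg
  have hUn : Nontrivial U := Module.nontrivial_of_finrank_pos (R := F) (by have := hX.dU; omega)
  -- a nonsingular `y ⊥ w, x`
  obtain ⟨u0, hu0n⟩ : ∃ u0, QU u0 ≠ 0 := by
    obtain ⟨a, b, hab⟩ := hX.sU
    obtain ⟨z, -, -, hz⟩ := exists_nonsing_perp S.ndU hX.dU hab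
    exact ⟨z, hz⟩
  -- singularity of vectors `z` with `g⁻¹ (u ⊗ z)` in `U ⊗ L`
  have hsing : ∀ z : W, (∀ u, ∃ u1 u2, g⁻¹ (t u z) = t u1 w + t u2 x) → QW z = 0 := by
    intro z hz
    obtain ⟨u1, u2, h1⟩ := hz u0
    have h2 : Q (t u0 z) = Q (g⁻¹ (t u0 z)) := ((O Q).inv_mem hgO _).symm
    rw [h1, Q_add, S.sing_right _ hw, S.sing_right _ hx, S.pol, hwx, mul_zero, S.Q_t] at h2
    have h3 : 2 * (QU u0 * QW z) = 0 := by rw [h2]; ring
    exact (mul_eq_zero.1 ((mul_eq_zero.1 h3).resolve_left S.two)).resolve_left hu0n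
  have hw2s : QW w2 = 0 := hsing w2 hgw
  obtain ⟨x', hx'1, hx'2⟩ := exists_sep S.ndW hind
  have hypx : Hyp QW x (x' + (-QW x') • x) := by
    refine ⟨hx, ?_, ?_⟩
    · rw [Q_add, QuadraticMap.map_smul, hx, polar_smul_right, polar_comm QW x' x, hx'2]; simp
    · rw [polar_add_right, polar_smul_right, polar_self_of_sing hx, hx'2]; simp
  have hwx'' : polar QW w (x' + (-QW x') • x) = 0 := by
    rw [polar_add_right, polar_smul_right, hx'1, hwx]; simp
  set x'' := x' + (-QW x') • x with hx''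
  obtain ⟨w', hypw, hw1, hw2'⟩ := exists_hyp_perp S.ndW hypx hw hw0 (by rw [polar_comm]; exact hwx)
    (by rw [polar_comm]; exact hwx'')
  obtain ⟨a, c, ⟨a1, -, a3, -⟩, ⟨c1, -, c3, -⟩, hac⟩ := exists_perp4 S.ndW hX.hW.dim hypx hypw
    (by rw [polar_comm]; exact hwx) hw1 (by rw [polar_comm]; exact hwx'') hw2'
  obtain ⟨y, hy1, hy2, hy3⟩ : ∃ y, polar QW x y = 0 ∧ polar QW w y = 0 ∧ QW y ≠ 0 := by
    rcases exists_nonsing hac with h | h | h
    · exact ⟨a, a1, a3, h⟩
    · exact ⟨c, c1, c3, h⟩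
    · exact ⟨a + c, by rw [polar_add_right, a1, c1, add_zero], by rw [polar_add_right, a3, c3, add_zero], h⟩
  have hyx : polar QW y x = 0 := by rw [polar_comm]; exact hy1
  -- the element `d`
  set d := Ten.rW S.ten (siegel QW w y hw hy2) with hd
  have hdX : d ∈ X := hO.rW _ (siegel_mem_E hw hy2)
  set e := g * d * g⁻¹ with he
  have heX : e ∈ X := X.mul_mem (X.mul_mem hg hdX) (X.inv_mem hg)
  have heg : ∀ v, e v = g (d (g⁻¹ v)) := fun v => rfl
  have hefix : ∀ u, e (t u w2) = t u w2 := by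
    intro u
    obtain ⟨u1, u2, h1⟩ := hgw u
    have h2 : d (t u1 w + t u2 x) = t u1 w + t u2 x := by
      rw [map_add, hd, rW_apply, rW_apply, siegel_apply, siegel_apply, polar_self_of_sing hw,
        polar_comm QW y w, hy2, hwx, hyx]
      simp
    rw [heg, h1, h2, ← h1]
    exact LinearEquiv.apply_symm_apply g _
  have heT : e ∈ TT t S.ten := S.stab_le hX hw2s hw2 heX (fun u => ⟨u, hefix u⟩)
  obtain ⟨k, l, hkl⟩ := heT
  obtain ⟨l', hl'⟩ := exists_rW_of_fix S.ten (k := k) (l := l) hw2 (by intro u; rw [← hkl]; exact hefix u)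
  rw [← hkl] at hl'
  -- `(e - 1)^2`
  have hsq : ∀ v, e (e v - v) - (e v - v) = (-(2 * QW y)) • g (t (S.cw w (g⁻¹ v)) w) := by
    intro v
    have h1 := congrArg g (S.siegel_sub_sq hw hy2 (g⁻¹ v))
    rw [← hd, map_sub g, map_smul g] at h1
    have h2 : g (g⁻¹ v) = v := LinearEquiv.apply_symm_apply g _
    have h5 : g (d (g⁻¹ v) - g⁻¹ v) = e v - v := by rw [map_sub g, h2, heg]
    rw [h5] at h1
    have h3 : g (d (d (g⁻¹ v) - g⁻¹ v)) = e (e v - v) := by
      rw [heg (e v - v), heg v, map_sub g⁻¹]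
      have h4 : g⁻¹ (g (d (g⁻¹ v))) = d (g⁻¹ v) := LinearEquiv.symm_apply_apply g _
      rw [h4]
    rw [← h3, ← h1]
  set n : W →ₗ[F] W := l' - LinearMap.id with hn
  have hsqt : ∀ u z, e (e (t u z) - t u z) - (e (t u z) - t u z) = t u (n (n z)) := by
    intro u z
    simp only [hl', ← map_sub, hn, LinearMap.sub_apply, LinearMap.id_apply]
  -- some `n (n z)` is nonzero
  obtain ⟨z, hz⟩ : ∃ z, n (n z) ≠ 0 := by
    by_contra hcon
    push Not at hcon
    have h1 : ∀ v, e (e v - v) - (e v - v) = 0 := by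
      intro v
      have : ((e : V →ₗ[F] V) - LinearMap.id) ∘ₗ ((e : V →ₗ[F] V) - LinearMap.id) = 0 := by
        refine ext_t S.ten fun u z => ?_
        have := hsqt u z
        rw [hcon z, map_zero] at this
        exact this
      exact LinearMap.congr_fun this v
    obtain ⟨a1, ha1⟩ := exists_ne (0 : U)
    have h2 := hsq (g (t a1 w'))
    rw [h1] at h2
    have h3 : g⁻¹ (g (t a1 w')) = t a1 w' := LinearEquiv.symm_apply_apply g _
    rw [h3, S.cw_t, hypw.pair, one_smul] at h2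
    have h4 := (smul_eq_zero.1 h2.symm).resolve_left (neg_ne_zero.2 (mul_ne_zero S.two hy3))
    have h5 : t a1 w = 0 := g.injective (by rw [h4, map_zero])
    exact t_ne S.ten ha1 hw0 h5
  set w3 := n (n z) with hw3
  let ψ : U →ₗ[F] U := (-(2 * QW y)) • (S.cw w ∘ₗ (g⁻¹ : V ≃ₗ[F] V).toLinearMap ∘ₗ t.flip z)
  have hψ : ∀ u, t u w3 = g (t (ψ u) w) := by
    intro u
    have h1 := hsq (t u z)
    rw [hsqt] at h1
    rw [h1]
    show _ = g (t ((-(2 * QW y)) • S.cw w (g⁻¹ (t u z))) w)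
    rw [map_smul, LinearMap.smul_apply, map_smul]
  have hψinj : Function.Injective ψ := by
    intro a b hab
    have h1 : t a w3 = t b w3 := by rw [hψ, hψ, hab]
    exact t_left_inj S.ten hz h1
  have hψsurj : Function.Surjective ψ := LinearMap.injective_iff_surjective.1 hψinj
  have hw3s : QW w3 = 0 := by
    have h2 : Q (t u0 w3) = 0 := by
      rw [hψ, hgO]
      exact S.sing_right _ hw
    rw [S.Q_t] at h2
    exact (mul_eq_zero.1 ((mul_eq_zero.1 h2).resolve_left S.two)).resolve_left hu0n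
  obtain ⟨m, hm, hmw⟩ := hX.hW.trans_sing hw3s hw hz hw0
  have hmX := hO.rW m hm
  have h1 : Ten.rW S.ten m * g ∈ TT t S.ten := by
    refine S.stab_le hX hw hw0 (X.mul_mem hmX hg) fun u => ?_
    obtain ⟨u', rfl⟩ := hψsurj u
    refine ⟨u', ?_⟩
    show Ten.rW S.ten m (g (t (ψ u') w)) = _
    rw [← hψ, rW_apply, hmw]
  have h2 : g = (Ten.rW S.ten m)⁻¹ * (Ten.rW S.ten m * g) := by rw [inv_mul_cancel_left]
  rw [h2]
  exact (TT t S.ten).mul_mem ((TT t S.ten).inv_mem (tm_mem_TT _ _ _)) h1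

end TSt

end Cfsg.Agent.H882.Ten
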