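import Cfsg.Agent.H882.Ten.TI

/-!
# The root elements `1 ⊗ siegel w x` are TI in a proper overgroup (`dim U < dim W`): main theorem
-/

set_option autoImplicit false
set_option linter.unusedSimpArgs false
set_option linter.unusedSectionVars false

namespace Cfsg.Agent.H882.Ten

open QuadraticMap hiding proj
open Cfsg.Agent.LieClassical.OrthCore Cfsg.Agent.LieClassical.OrthTrans Cfsg.Agent.H883.Root

/-- A nonzero skew operator has rank at least two. -/
theorem skew_two {F U : Type*} [Field F] [AddCommGroup U] [Module F U] {QU : QuadraticForm F U}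
    (h2 : (2 : F) ≠ 0) (hQ : Nondeg QU) {n : U →ₗ[F] U}
    (hsk : ∀ u u', polar QU (n u) u' = - polar QU u (n u')) {u1 : U} (hu1 : n u1 ≠ 0) :
    ∃ u2, ∀ c : F, n u2 ≠ c • n u1 := by
  by_contra hcon
  push Not at hcon
  apply hu1
  have h1 : polar QU (n u1) u1 = 0 := by
    have h3 := hsk u1 u1
    rw [polar_comm QU u1] at h3
    have h5 : 2 * polar QU (n u1) u1 = 0 := by linear_combination h3
    exact (mul_eq_zero.1 h5).resolve_left h2
  refine hQ _ fun u => ?_
  obtain ⟨c, hc⟩ := hcon u
  rw [hsk, hc, polar_smul_right, polar_comm, h1]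
  simp

variable {F : Type*} {U : Type*} {W : Type*} {V : Type*} [Field F] [AddCommGroup U] [Module F U]
  [AddCommGroup W] [Module F W] [AddCommGroup V] [Module F V]
  {t : U →ₗ[F] W →ₗ[F] V} {QU : QuadraticForm F U} {QW : QuadraticForm F W} {Q : QuadraticForm F V}
  {X : Subgroup (V ≃ₗ[F] V)}

namespace TSt

variable (S : TSt t QU QW Q)

include S

theorem siegel_sub {w x : W} (hw : QW w = 0) (hx : QW x = 0) (hwx : polar QW w x = 0) (v : V) :
    Ten.rW S.ten (siegel QW w x hw hwx) v - v = t (S.cw w v) x - t (S.cw x v) w := by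
  have : (Ten.rW S.ten (siegel QW w x hw hwx) : V →ₗ[F] V) - LinearMap.id =
      t.flip x ∘ₗ S.cw w - t.flip w ∘ₗ S.cw x := by
    refine ext_t S.ten fun u z => ?_
    simp only [LinearMap.comp_apply, LinearMap.sub_apply, LinearMap.id_apply, LinearEquiv.coe_coe,
      rW_apply, LinearMap.flip_apply, S.cw_t, siegel_apply, hx, map_add, map_sub, map_smul, LinearMap.smul_apply]
    module
  exact LinearMap.congr_fun this v

theorem siegel_ne {w x : W} (hw : QW w = 0) (hx : QW x = 0) (hwx : polar QW w x = 0) (hw0 : w ≠ 0)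
    (hind : ∀ c : F, x ≠ c • w) : ∃ z, siegel QW w x hw hwx z ≠ z := by
  obtain ⟨z, h1, h2⟩ := exists_sep S.ndW hind
  refine ⟨z, fun h => hw0 ?_⟩
  rw [siegel_apply, h1, h2, hx] at h
  have : z + (0 : F) • x - (1 : F) • w - (0 * 0 : F) • w = z - w := by module
  rw [this] at h
  exact sub_eq_self.1 h

/-- **TI for root elements.** -/
theorem mem_TT_of_conj [Finite F] [FiniteDimensional F U] [FiniteDimensional F W] [FiniteDimensional F V]
    (hX : Prop1 S X) (hab : Module.finrank F U < Module.finrank F W) {w x : W} (hw : QW w = 0) (hx : QW x = 0)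
    (hwx : polar QW w x = 0) (hw0 : w ≠ 0) (hind : ∀ c : F, x ≠ c • w) {g : V ≃ₗ[F] V} (hg : g ∈ X)
    (hgT : g * Ten.rW S.ten (siegel QW w x hw hwx) * g⁻¹ ∈ TT t S.ten) : g ∈ TT t S.ten := by
  have hO := S.ovg hX
  have hgO := hO.le hg
  have hUn : Nontrivial U := Module.nontrivial_of_finrank_pos (R := F) (by have := hX.dU; omega)
  have hWn : Nontrivial W := Module.nontrivial_of_finrank_pos (R := F) (by have := hX.hW.dim; omega)
  obtain ⟨k, l, hkl⟩ := hgT
  set d := Ten.rW S.ten (siegel QW w x hw hwx) with hd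
  set e := tm S.ten k l with he
  have hdX : d ∈ X := hO.rW _ (siegel_mem_E hw hwx)
  have heX : e ∈ X := by rw [← hkl]; exact X.mul_mem (X.mul_mem hg hdX) (X.inv_mem hg)
  have heg : ∀ v, e v = g (d (g⁻¹ v)) := fun v => by rw [← hkl]; rfl
  have hgg : ∀ v, g (g⁻¹ v) = v := fun v => LinearEquiv.apply_symm_apply g _
  have hgg' : ∀ v, g⁻¹ (g v) = v := fun v => LinearEquiv.symm_apply_apply g _
  -- `(e - 1) v`
  have hsub : ∀ v, e v - v = g (t (S.cw w (g⁻¹ v)) x - t (S.cw x (g⁻¹ v)) w) := by
    intro v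
    rw [← S.siegel_sub hw hx hwx, ← hd, map_sub g, hgg, heg]
  have hsq : ∀ v, e (e v - v) - (e v - v) = 0 := by
    intro v
    have h1 := S.siegel_sub_sq hw hwx (g⁻¹ v)
    rw [← hd, hx, mul_zero, neg_zero, zero_smul] at h1
    have h5 : g (d (g⁻¹ v) - g⁻¹ v) = e v - v := by rw [map_sub g, hgg, heg]
    have h6 : g⁻¹ (e v - v) = d (g⁻¹ v) - g⁻¹ v := by rw [← h5, hgg']
    have h7 : e (e v - v) = g (d (d (g⁻¹ v) - g⁻¹ v)) := by rw [heg (e v - v), h6]
    rw [h7, ← h5, ← map_sub g, h1, map_zero]
  have het : ∀ u z, e (t u z) = t (k u) (l z) := fun u z => tm_apply _ _ _ _ _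
  -- `e ≠ 1`
  have hne : ¬ ∀ v, e v = v := by
    intro h
    obtain ⟨z, hz⟩ := S.siegel_ne hw hx hwx hw0 hind
    obtain ⟨a, ha⟩ := exists_ne (0 : U)
    have h1 := h (g (t a z))
    rw [heg, hgg'] at h1
    have h2 : d (t a z) = t a z := g.injective h1
    rw [hd, rW_apply] at h2
    exact hz (t_right_inj S.ten ha h2)
  by_cases hk : ∀ u, ∃ c : F, k u = c • u
  · -- `e = 1 ⊗ l'`
    obtain ⟨c, hc⟩ := scalar_of_all (k : U →ₗ[F] U) hk
    have hc' : ∀ u, k u = c • u := hc
    obtain ⟨z, hz⟩ : ∃ z, c • l z - z ≠ 0 := by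
      by_contra hcon
      push Not at hcon
      apply hne
      intro v
      have : (e : V →ₗ[F] V) = LinearMap.id := by
        refine ext_t S.ten fun u z => ?_
        show e (t u z) = t u z
        rw [het, hc', map_smul, LinearMap.smul_apply, ← map_smul, sub_eq_zero.1 (hcon z)]
      exact LinearMap.congr_fun this v
    refine S.mem_TT_of_line hX hw hx hwx hind hw0 hg hz fun u => ?_
    refine ⟨-(S.cw x (g⁻¹ (t u z))), S.cw w (g⁻¹ (t u z)), ?_⟩
    have h1 : t u (c • l z - z) = e (t u z) - t u z := by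
      rw [het, hc', map_sub, map_smul, map_smul]; rfl
    rw [h1, hsub, hgg', map_neg, LinearMap.neg_apply]
    abel
  · -- `e = k' ⊗ 1`: impossible
    exfalso
    push Not at hk
    obtain ⟨u, hu⟩ := hk
    have hu0 : u ≠ 0 := by
      rintro rfl
      exact hu 0 (by simp)
    have heq : ∀ z, t (k (k u)) (l (l z)) - (2 : F) • t (k u) (l z) + t u z = 0 := by
      intro z
      have h1 := hsq (t u z)
      rw [het, map_sub e, het, het] at h1
      rw [← h1]
      module
    obtain ⟨φ, hφ1, hφ2⟩ := exists_ne_of_ne hu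
    have hspan : k (k u) ∈ Submodule.span F {u, k u} := by
      by_contra hnot
      obtain ⟨ψ, hψ, hψ'⟩ := Submodule.exists_le_ker_of_notMem hnot
      have hψ1 : ψ u = 0 := hψ' (Submodule.subset_span (by simp))
      have hψ2 : ψ (k u) = 0 := hψ' (Submodule.subset_span (by simp))
      obtain ⟨z, hz⟩ := exists_ne (0 : W)
      have h1 := congrArg (cU S.ten ψ) (heq z)
      simp only [map_add, map_sub, map_smul, cU_apply, hψ1, hψ2, zero_smul, smul_zero, sub_zero, add_zero,
        map_zero] at h1
      have h2 := (smul_eq_zero.1 h1).resolve_left hψ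
      exact hz (l.injective (l.injective (by rw [h2]; simp)))
    obtain ⟨α, β, hαβ⟩ := Submodule.mem_span_pair.1 hspan
    have hβ : ∀ z, β • l z = (2 : F) • z := by
      intro z
      have h1 := congrArg (cU S.ten φ) (heq z)
      rw [← hαβ] at h1
      simp only [map_add, map_sub, map_smul, cU_apply, hφ1, LinearMap.add_apply, LinearMap.smul_apply,
        zero_smul, smul_zero, add_zero, map_zero, zero_add] at h1
      have h2 : φ (k u) • (l (β • l z - (2 : F) • z)) = 0 := by
        rw [map_sub, map_smul, map_smul, ← h1]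
        module
      have h3 := (smul_eq_zero.1 h2).resolve_left hφ2
      exact sub_eq_zero.1 (l.injective (by rw [h3, map_zero]))
    have hβ0 : β ≠ 0 := by
      rintro rfl
      obtain ⟨z, hz⟩ := exists_ne (0 : W)
      have := hβ z
      rw [zero_smul] at this
      exact hz ((smul_eq_zero.1 this.symm).resolve_left S.two)
    have hl : ∀ z, l z = (β⁻¹ * 2) • z := by
      intro z
      rw [← smul_smul, ← hβ, smul_smul, inv_mul_cancel₀ hβ0, one_smul]
    let n : U →ₗ[F] U := (β⁻¹ * 2) • (k : U →ₗ[F] U) - LinearMap.id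
    have hn : ∀ a, n a = (β⁻¹ * 2) • k a - a := fun a => rfl
    have hen : ∀ a z, e (t a z) = t a z + t (n a) z := by
      intro a z
      rw [het, hl, hn, map_smul, map_sub, map_smul]
      simp only [LinearMap.sub_apply, LinearMap.smul_apply]
      module
    have hnn : ∀ a, n (n a) = 0 := by
      intro a
      obtain ⟨z, hz⟩ := exists_ne (0 : W)
      have h1 := hsq (t a z)
      rw [hen, add_sub_cancel_left, hen, add_sub_cancel_left] at h1
      exact eq_zero_of_t S.ten h1 hz
    obtain ⟨z1, hz1⟩ := exists_ne (0 : W)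
    obtain ⟨z2, hz2⟩ := S.ndW.exists_polar_eq hz1 1
    have hiso : ∀ a b, polar QU (a + n a) (b + n b) = polar QU a b := by
      intro a b
      have h1 := polar_map (hO.le heX) (t a z1) (t b z2)
      rw [hen, hen, ← LinearMap.add_apply, ← LinearMap.add_apply, ← map_add, ← map_add, S.pol, S.pol, hz2,
        mul_one, mul_one] at h1
      exact h1
    have hnn2 : ∀ a b, polar QU (n a) (n b) = 0 := by
      intro a b
      have h1 := hiso (n a) b
      rw [hnn, add_zero, polar_add_right] at h1
      linear_combination h1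
    have hsk : ∀ a b, polar QU (n a) b = - polar QU a (n b) := by
      intro a b
      have h1 := hiso a b
      rw [polar_add_left, polar_add_right, polar_add_right, hnn2] at h1
      linear_combination h1
    obtain ⟨u1, hu1⟩ : ∃ u1, n u1 ≠ 0 := by
      by_contra hcon
      push Not at hcon
      apply hne
      intro v
      have : (e : V →ₗ[F] V) = LinearMap.id := by
        refine ext_t S.ten fun u z => ?_
        show e (t u z) = t u z
        rw [hen, hcon, map_zero, LinearMap.zero_apply, add_zero]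
      exact LinearMap.congr_fun this v
    obtain ⟨u2, hu2⟩ := skew_two S.two S.ndU hsk hu1
    let f : (W × W) →ₗ[F] V := (t (n u1)).coprod (t (n u2))
    let h : (U × U) →ₗ[F] V := (g : V →ₗ[F] V) ∘ₗ ((t.flip w).coprod (t.flip x))
    have hf : ∀ a b, f (a, b) = t (n u1) a + t (n u2) b := fun a b => by simp [f]
    have hh : ∀ a b, h (a, b) = g (t a w + t b x) := fun a b => by simp [h]
    have hfinj : Function.Injective f := by
      rw [← LinearMap.ker_eq_bot, LinearMap.ker_eq_bot']
      rintro ⟨a, b⟩ hab'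
      rw [hf] at hab'
      have hb := eq_zero_of_add S.ten hab' hu2
      rw [hb, map_zero, add_zero] at hab'
      have ha : a = 0 := t_right_inj S.ten hu1 (by rw [hab', map_zero])
      rw [ha, hb]; rfl
    have hle : LinearMap.range f ≤ LinearMap.range h := by
      rintro _ ⟨⟨a, b⟩, rfl⟩
      have h1 : f (a, b) = (e (t u1 a) - t u1 a) + (e (t u2 b) - t u2 b) := by
        rw [hf, hen, hen]; abel
      rw [h1, hsub, hsub]
      refine Submodule.add_mem _ ?_ ?_
      · exact ⟨(-(S.cw x (g⁻¹ (t u1 a))), S.cw w (g⁻¹ (t u1 a))), by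
          rw [hh, map_neg, LinearMap.neg_apply]; congr 1; abel⟩
      · exact ⟨(-(S.cw x (g⁻¹ (t u2 b))), S.cw w (g⁻¹ (t u2 b))), by
          rw [hh, map_neg, LinearMap.neg_apply]; congr 1; abel⟩
    have e1 := LinearMap.finrank_range_of_inj hfinj
    have e2 := Submodule.finrank_mono hle
    have e3 : Module.finrank F (LinearMap.range h) ≤ Module.finrank F (U × U) := LinearMap.finrank_range_le h
    rw [Module.finrank_prod] at e1 e3
    omega

end TSt

end Cfsg.Agent.H882.Ten
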