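import Cfsg.Agent.H882.Ten.Main
import Cfsg.Agent.H883.Tensor

/-!
# Orthogonal tensor decompositions: maximality of the stabiliser, matrix version
-/

set_option autoImplicit false

namespace Cfsg.Agent.H882.Ten

open QuadraticMap hiding proj
open Cfsg.Agent.LieClassical.OrthCore Cfsg.Agent.LieClassical.OrthTrans
open Cfsg.Agent.LieClassical.OrthFinite Cfsg.Agent.H883.Bridge Cfsg.Agent.H883.Tensor

section abs

variable {F : Type*} {U : Type*} {W : Type*} {V : Type*} [Field F] [AddCommGroup U] [Module F U]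
  [AddCommGroup W] [Module F W] [AddCommGroup V] [Module F V]
variable {t : U →ₗ[F] W →ₗ[F] V} {QU : QuadraticForm F U} {QW : QuadraticForm F W} {Q : QuadraticForm F V}

theorem TSt.not_E_le (S : TSt t QU QW Q) (hW : Good QW) (hG : Good Q) {x y : U} (hxy : Hyp QU x y) :
    ¬ E Q ≤ TT t S.ten := by
  intro hle
  obtain ⟨w, w', hyp⟩ := hW.exists_hyp
  obtain ⟨z, z', hyp', q1, q2, q3, q4⟩ := hW.exists_hyp2 hyp
  have hs1 : Q (t x w) = 0 := S.sing_left hxy.left w
  have hs2 : Q (t x w + t y z) = 0 := by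
    rw [Q_add, S.sing_left hxy.left, S.sing_left hxy.right, S.pol, q1]; ring
  have hc1 : S.cu y (t x w + t y z) = w := by
    rw [map_add, S.cu_t, S.cu_t, hxy.pair', hxy.polar_right]; simp
  have hc2 : S.cu x (t x w + t y z) = z := by
    rw [map_add, S.cu_t, S.cu_t, hxy.pair, hxy.polar_left]; simp
  have hne : t x w + t y z ≠ 0 := by
    intro h
    rw [h, map_zero] at hc1
    exact hyp.left_ne hc1.symm
  obtain ⟨g, hg, hgx⟩ := hG.trans_sing hs1 hs2 (t_ne S.ten hxy.left_ne hyp.left_ne) hne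
  obtain ⟨k, l, rfl⟩ := hle hg
  rw [tm_apply] at hgx
  rw [← hgx, S.cu_t] at hc1 hc2
  have e1 : polar QU y (k x) * polar QW w' (l w) = 1 := by
    rw [← smul_eq_mul, ← polar_smul_right, hc1, hyp.pair']
  have e2 : polar QU x (k x) * polar QW w' (l w) = 0 := by
    rw [← smul_eq_mul, ← polar_smul_right, hc2, q3]
  have e3 : polar QU x (k x) = 0 := by
    refine (mul_eq_zero.1 e2).resolve_right fun h => ?_
    rw [h, mul_zero] at e1
    exact zero_ne_one e1
  rw [e3, zero_smul] at hc2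
  exact hyp'.left_ne hc2.symm

/-- **Maximality, coordinate free.** -/
theorem TSt.isMaximalIn [Finite F] [FiniteDimensional F U] [FiniteDimensional F W] [FiniteDimensional F V]
    (S : TSt t QU QW Q) (hW : Good QW) (hG : Good Q) (hd : 3 ≤ Module.finrank F U) (hPU : PU QU)
    (hexc : 4 ≤ Module.finrank F U ∨ ∃ c : F, c ≠ 0 ∧ c * c ≠ 1)
    (hab : Module.finrank F U < Module.finrank F W) :
    Cfsg.Geo.IsMaximalIn (E Q) (TT t S.ten ⊓ E Q) := by
  obtain ⟨x, -, hx0, hx⟩ := exists_sing_mem (Q := QU) (⊤ : Submodule F U) (by rwa [finrank_top])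
  obtain ⟨y, hxy⟩ := LieClassical.OrthTrans.exists_hyp S.ndU hx hx0
  have hne := S.not_E_le hW hG hxy
  refine ⟨lt_of_le_of_ne inf_le_right fun h => hne ?_, fun M hM1 hM2 => ?_⟩
  · rw [← h]; exact inf_le_left
  · by_cases hEM : E Q ≤ M
    · exact Or.inr (le_antisymm hM2 hEM)
    · left
      refine le_antisymm (le_inf ?_ hM2) hM1
      exact S.le_TT ⟨hM2, hM1, hEM, hW, hG, hd, ⟨x, y, hxy⟩, hPU, hexc⟩ hab

/-- The condition `PU`. -/
theorem pu_of [FiniteDimensional F U] (hQ : Nondeg QU)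
    (hd : 5 ≤ Module.finrank F U ∨ Module.finrank F U ≤ 3 ∨
      ∀ T : Submodule F U, (∀ w ∈ T, QU w = 0) → Module.finrank F T ≠ 2) : PU QU := by
  intro u v hu hv huv hu0 hind
  obtain ⟨y, hy1, hy2⟩ := exists_sep hQ hind
  have hypv : Hyp QU v (y - QU y • v) := by
    refine ⟨hv, ?_, ?_⟩
    · rw [sub_eq_add_neg, Q_add, QuadraticMap.map_neg, QuadraticMap.map_smul, hv, polar_neg_right,
        polar_smul_right, polar_comm QU y v, hy2]
      simp
    · rw [polar_sub_right, polar_smul_right, hy2, polar_self_of_sing hv]; simp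
  have h1 : polar QU v u = 0 := by rw [polar_comm]; exact huv
  have h2 : polar QU (y - QU y • v) u = 0 := by
    rw [polar_sub_left, polar_smul_left, h1, polar_comm, hy1]; simp
  obtain ⟨z, hz, hz1, hz2⟩ := exists_hyp_perp hQ hypv hu hu0 h1 h2
  set v' := y - QU y • v with hv'
  have h4 : ∀ a b c d : F, a • v + b • v' + c • u + d • z = 0 → a = 0 ∧ b = 0 ∧ c = 0 ∧ d = 0 := by
    intro a b c d h
    have e1 := congrArg (polar QU v') h
    have e2 := congrArg (polar QU v) h
    have e3 := congrArg (polar QU z) h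
    have e4 := congrArg (polar QU u) h
    have hv'u : polar QU u v' = 0 := by rw [polar_comm]; exact h2
    have hzv : polar QU z v = 0 := by rw [polar_comm]; exact hz1
    have hzv' : polar QU z v' = 0 := by rw [polar_comm]; exact hz2
    simp only [polar_add_right, polar_smul_right, hypv.pair, hypv.pair', hypv.polar_left, hypv.polar_right,
      hz.pair, hz.pair', hz.polar_left, hz.polar_right, h1, h2, hz1, hz2, hzv, hzv', huv, hv'u, smul_eq_mul,
      polar_zero_right, mul_zero, mul_one, add_zero, zero_add] at e1 e2 e3 e4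
    exact ⟨e1, e2, e3, e4⟩
  rcases hd with hd | hd | hd
  · obtain ⟨a, c, ⟨ha1, ha2, ha3, ha4⟩, ⟨hc1, hc2, hc3, hc4⟩, hac⟩ :=
      exists_perp4 hQ hd hypv hz h1 hz1 h2 hz2
    rcases exists_nonsing hac with h | h | h
    · exact ⟨a, ha3, ha1, h⟩
    · exact ⟨c, hc3, hc1, h⟩
    · exact ⟨a + c, by rw [polar_add_right, ha3, hc3, add_zero], by rw [polar_add_right, ha1, hc1, add_zero], h⟩
  · exfalso
    have hli : LinearIndependent F ![v, v', u, z] := by
      rw [Fintype.linearIndependent_iff]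
      intro c hc
      rw [Fin.sum_univ_four] at hc
      obtain ⟨i1, i2, i3, i4⟩ := h4 (c 0) (c 1) (c 2) (c 3) hc
      intro i
      fin_cases i
      · exact i1
      · exact i2
      · exact i3
      · exact i4
    have := hli.fintype_card_le_finrank
    rw [Fintype.card_fin] at this
    omega
  · exfalso
    have hli : LinearIndependent F ![v, u] := by
      rw [Fintype.linearIndependent_iff]
      intro c hc
      rw [Fin.sum_univ_two] at hc
      have hc' : c 0 • v + (0 : F) • v' + c 1 • u + (0 : F) • z = 0 := by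
        rw [zero_smul, zero_smul, add_zero, add_zero]; exact hc
      obtain ⟨i1, -, i3, -⟩ := h4 _ _ _ _ hc'
      intro i
      fin_cases i
      · exact i1
      · exact i3
    refine hd (Submodule.span F (Set.range ![v, u])) ?_ ?_
    · intro w hw
      rw [Submodule.mem_span_range_iff_exists_fun] at hw
      obtain ⟨c, rfl⟩ := hw
      rw [Fin.sum_univ_two]
      show QU (c 0 • v + c 1 • u) = 0
      rw [Q_add, QuadraticMap.map_smul, QuadraticMap.map_smul, hu, hv, polar_smul_left, polar_smul_right, h1]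
      simp
    · rw [finrank_span_eq_card hli, Fintype.card_fin]

theorem isTensorProduct_flip {t : U →ₗ[F] W →ₗ[F] V} (ht : IsTensorProduct t) : IsTensorProduct t.flip := by
  have : TensorProduct.lift t.flip = TensorProduct.lift t ∘ₗ (TensorProduct.comm F W U : _ →ₗ[F] _) := by
    apply TensorProduct.ext'
    intro x y
    simp
  rw [IsTensorProduct, this, LinearMap.coe_comp]
  exact ht.comp (TensorProduct.comm F W U).bijective

theorem exists_exc [Fintype F] (hodd : Odd (Fintype.card F)) (h3 : Fintype.card F ≠ 3) :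
    ∃ c : F, c ≠ 0 ∧ c * c ≠ 1 := by
  classical
  by_contra hcon
  push Not at hcon
  have h1 : (Finset.univ : Finset F) ⊆ {0, 1, -1} := by
    intro c _
    by_cases hc : c = 0
    · simp [hc]
    · rcases mul_self_eq_one_iff.1 (hcon c hc) with h | h <;> simp [h]
  have h2 := Finset.card_le_card h1
  rw [Finset.card_univ] at h2
  have h4 : (({0, 1, -1} : Finset F)).card ≤ 3 := Finset.card_le_three
  have h5 : 1 < Fintype.card F := Fintype.one_lt_card
  obtain ⟨k, hk⟩ := hodd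
  omega

theorem two_ne [Fintype F] (hodd : Odd (Fintype.card F)) : (2 : F) ≠ 0 := by
  intro h2
  have h : ringChar F = 2 := by
    have h1 : ((2 : ℕ) : F) = 0 := by exact_mod_cast h2
    have h3 : ringChar F ∣ 2 := (ringChar.spec F 2).1 h1
    have h4 : (ringChar F).Prime := CharP.char_is_prime F (ringChar F)
    exact (Nat.prime_dvd_prime_iff_eq h4 Nat.prime_two).1 h3
  have h5 : Fintype.card F % 2 = 0 := FiniteField.even_card_of_char_two h
  rw [Nat.odd_iff] at hodd
  omega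

end abs

section coord

variable {ι : Type} [Fintype ι] [DecidableEq ι] {F : Type*} [Field F] {n₁ n₂ : ℕ}

theorem tmulBilin_isTensorProduct (n₁ n₂ : ℕ) (F : Type*) [Field F] :
    IsTensorProduct (tmulBilin n₁ n₂ F) := by
  have hsurj : Function.Surjective (TensorProduct.lift (tmulBilin n₁ n₂ F)) := by
    intro z
    refine ⟨∑ i, TensorProduct.tmul F (Pi.single i (1 : F)) (fun j => z (i, j)), ?_⟩
    rw [map_sum]
    simp only [TensorProduct.lift.tmul, tmulBilin_apply]
    exact (eq_sum_tmul z).symm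
  refine ⟨?_, hsurj⟩
  refine (LinearMap.injective_iff_surjective_of_finrank_eq_finrank ?_).2 hsurj
  rw [Module.finrank_tensorProduct, Module.finrank_fintype_fun_eq_card, Module.finrank_fintype_fun_eq_card,
    Module.finrank_fintype_fun_eq_card, Fintype.card_prod]

omit [Fintype ι] [DecidableEq ι] in
theorem pureBilin_isTensorProduct [Fintype ι] [DecidableEq ι] (e : ι ≃ Fin n₁ × Fin n₂)
    (P : Matrix.GeneralLinearGroup ι F) : IsTensorProduct (pureBilin e P) :=
  (tmulBilin_isTensorProduct n₁ n₂ F).compr₂_linearEquiv (vec e P)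

/-- A quadratic form with polar form `c f`. -/
theorem exists_qf (h2 : (2 : F) ≠ 0) {n : ℕ} {f : (Fin n → F) → (Fin n → F) → F}
    (hf : Cfsg.Geo.IsSymmetricForm f) {c : F} (hc : c ≠ 0) :
    ∃ q : QuadraticForm F (Fin n → F), (∀ x y, polar q x y = c * f x y) ∧ Nondeg q ∧
      ∀ x, q x = 0 ↔ f x x = 0 := by
  let B : LinearMap.BilinMap F (Fin n → F) F :=
    LinearMap.mk₂ F f hf.bilinear.add_left (fun c x v => by rw [hf.bilinear.smul_left, smul_eq_mul])
      hf.bilinear.add_right (fun c v x => by rw [hf.bilinear.smul_right, smul_eq_mul])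
  have hB : ∀ x y, B x y = f x y := fun _ _ => rfl
  let q : QuadraticForm F (Fin n → F) := LinearMap.BilinMap.toQuadraticMap ((c * 2⁻¹) • B)
  have hq : ∀ x y, polar q x y = c * f x y := by
    intro x y
    show polar (LinearMap.BilinMap.toQuadraticMap ((c * 2⁻¹) • B)) x y = _
    rw [LinearMap.BilinMap.polar_toQuadraticMap]
    show (c * 2⁻¹) * f x y + (c * 2⁻¹) * f y x = _
    rw [hf.symm y x]
    field_simp
    ring
  refine ⟨q, hq, ?_, ?_⟩
  · intro x hx
    by_contra h0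
    obtain ⟨-, ⟨z, hz⟩⟩ := hf.nondegenerate x h0
    have := hx z
    rw [hq] at this
    exact hz ((mul_eq_zero.1 this).resolve_left hc)
  · intro x
    show (c * 2⁻¹) * f x x = 0 ↔ f x x = 0
    constructor
    · intro h
      exact (mul_eq_zero.1 h).resolve_left (mul_ne_zero hc (inv_ne_zero h2))
    · intro h; rw [h, mul_zero]

theorem mem_TT_iff (e : ι ≃ Fin n₁ × Fin n₂) (P g : Matrix.GeneralLinearGroup ι F)
    (ht : IsTensorProduct (pureBilin e P)) :
    g ∈ Cfsg.Geo.tensorProductSubgroup n₁ n₂ e P ↔ glEquiv ι F g ∈ TT (pureBilin e P) ht := by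
  rw [mem_tensorProductSubgroup_iff]
  constructor
  · rintro ⟨a, b, h⟩
    refine mem_TT_of (k := glEquiv _ F a) (l := glEquiv _ F b) fun u w => ?_
    exact h u w
  · rintro ⟨k, l, h⟩
    obtain ⟨a, rfl⟩ := (glEquiv _ F).surjective k
    obtain ⟨b, rfl⟩ := (glEquiv _ F).surjective l
    refine ⟨a, b, fun x y => ?_⟩
    have h1 := LinearEquiv.congr_fun h (pureBilin e P x y)
    rw [tm_apply] at h1
    exact h1

theorem mem_TT_flip_iff (e : ι ≃ Fin n₁ × Fin n₂) (P g : Matrix.GeneralLinearGroup ι F)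
    (ht : IsTensorProduct (pureBilin e P).flip) :
    g ∈ Cfsg.Geo.tensorProductSubgroup n₁ n₂ e P ↔ glEquiv ι F g ∈ TT (pureBilin e P).flip ht := by
  rw [mem_tensorProductSubgroup_iff]
  constructor
  · rintro ⟨a, b, h⟩
    refine mem_TT_of (k := glEquiv _ F b) (l := glEquiv _ F a) fun u w => ?_
    exact h w u
  · rintro ⟨k, l, h⟩
    obtain ⟨a, rfl⟩ := (glEquiv _ F).surjective k
    obtain ⟨b, rfl⟩ := (glEquiv _ F).surjective l
    refine ⟨b, a, fun x y => ?_⟩
    have h1 := LinearEquiv.congr_fun h ((pureBilin e P).flip y x)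
    rw [tm_apply] at h1
    exact h1

/-- **Maximality of an orthogonal tensor decomposition stabiliser, `n₁ < n₂`.** -/
theorem maximal_of_lt [Finite F] (h2 : (2 : F) ≠ 0) {Q : (ι → F) → F}
    (hQ : Cfsg.Geo.IsNondegenerateQuadraticForm Q) (h1 : 3 ≤ n₁) (h12 : n₁ < n₂) (h5 : 5 ≤ n₂)
    (hexc : 4 ≤ n₁ ∨ ∃ c : F, c ≠ 0 ∧ c * c ≠ 1) (e : ι ≃ Fin n₁ × Fin n₂)
    (P : Matrix.GeneralLinearGroup ι F) (f₁ : (Fin n₁ → F) → (Fin n₁ → F) → F)
    (f₂ : (Fin n₂ → F) → (Fin n₂ → F) → F) (hf₁ : Cfsg.Geo.IsSymmetricForm f₁)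
    (hf₂ : Cfsg.Geo.IsSymmetricForm f₂)
    (hp : n₁ = 4 → ¬ Cfsg.Geo.IsPlusTypeOn (fun v : Fin n₁ → F => f₁ v v) ⊤)
    (hT : Cfsg.Geo.IsTensorFormStructure id (QuadraticMap.polar Q) f₁ f₂ e P) :
    Cfsg.Geo.IsMaximalIn (Cfsg.Geo.omegaGL Q)
      (Cfsg.Geo.tensorProductSubgroup n₁ n₂ e P ⊓ Cfsg.Geo.omegaGL Q) := by
  obtain ⟨Q', rfl, hnd⟩ := exists_quadraticForm hQ
  have hcard : Fintype.card ι = n₁ * n₂ := by
    rw [Fintype.card_congr e, Fintype.card_prod, Fintype.card_fin, Fintype.card_fin]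
  have hG : Good Q' := good_of_card hnd (by
    rw [hcard]
    have : 3 * 5 ≤ n₁ * n₂ := Nat.mul_le_mul h1 h5
    omega)
  obtain ⟨c, hc, hform⟩ := form_pure hf₁.bilinear hf₂.bilinear hT
  obtain ⟨QU, hU, ndU, zU⟩ := exists_qf h2 hf₁ hc
  obtain ⟨QW, hW, ndW, -⟩ := exists_qf h2 hf₂ one_ne_zero
  have S : TSt (pureBilin e P) QU QW Q' := by
    refine ⟨pureBilin_isTensorProduct e P, h2, fun u w u' w' => ?_, ndU, ndW⟩
    rw [hU, hW, pureBilin_apply, pureBilin_apply, hform]
    ring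
  have hfr : ∀ k : ℕ, Module.finrank F (Fin k → F) = k := fun k => Module.finrank_fin_fun F
  refine isMaximalIn_omegaGL hG _ (TT (pureBilin e P) S.ten) (fun g => mem_TT_iff e P g S.ten) ?_
  refine S.isMaximalIn (good_of_finite ndW (by rwa [hfr])) hG (by rwa [hfr]) (pu_of ndU ?_) (by rwa [hfr])
    (by rwa [hfr, hfr])
  rw [hfr]
  by_cases h4 : n₁ = 4
  · right; right
    intro T hT hT2
    refine hp h4 ⟨T, le_top, fun w hw => (zU w).1 (hT w hw), ?_⟩
    rw [hT2, finrank_top, hfr, h4]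
  · omega

/-- **Maximality of an orthogonal tensor decomposition stabiliser, `n₂ < n₁`.** -/
theorem maximal_of_gt [Finite F] (h2 : (2 : F) ≠ 0) {Q : (ι → F) → F}
    (hQ : Cfsg.Geo.IsNondegenerateQuadraticForm Q) (h1 : 3 ≤ n₂) (h12 : n₂ < n₁) (h5 : 5 ≤ n₁)
    (hexc : 4 ≤ n₂ ∨ ∃ c : F, c ≠ 0 ∧ c * c ≠ 1) (e : ι ≃ Fin n₁ × Fin n₂)
    (P : Matrix.GeneralLinearGroup ι F) (f₁ : (Fin n₁ → F) → (Fin n₁ → F) → F)
    (f₂ : (Fin n₂ → F) → (Fin n₂ → F) → F) (hf₁ : Cfsg.Geo.IsSymmetricForm f₁)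
    (hf₂ : Cfsg.Geo.IsSymmetricForm f₂)
    (hp : n₂ = 4 → ¬ Cfsg.Geo.IsPlusTypeOn (fun v : Fin n₂ → F => f₂ v v) ⊤)
    (hT : Cfsg.Geo.IsTensorFormStructure id (QuadraticMap.polar Q) f₁ f₂ e P) :
    Cfsg.Geo.IsMaximalIn (Cfsg.Geo.omegaGL Q)
      (Cfsg.Geo.tensorProductSubgroup n₁ n₂ e P ⊓ Cfsg.Geo.omegaGL Q) := by
  obtain ⟨Q', rfl, hnd⟩ := exists_quadraticForm hQ
  have hcard : Fintype.card ι = n₁ * n₂ := by
    rw [Fintype.card_congr e, Fintype.card_prod, Fintype.card_fin, Fintype.card_fin]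
  have hG : Good Q' := good_of_card hnd (by
    rw [hcard]
    have : 5 * 3 ≤ n₁ * n₂ := Nat.mul_le_mul h5 h1
    omega)
  obtain ⟨c, hc, hform⟩ := form_pure hf₁.bilinear hf₂.bilinear hT
  obtain ⟨QU, hU, ndU, zU⟩ := exists_qf h2 hf₂ one_ne_zero
  obtain ⟨QW, hW, ndW, -⟩ := exists_qf h2 hf₁ hc
  have S : TSt (pureBilin e P).flip QU QW Q' := by
    refine ⟨isTensorProduct_flip (pureBilin_isTensorProduct e P), h2, fun u w u' w' => ?_, ndU, ndW⟩
    rw [hU, hW, LinearMap.flip_apply, LinearMap.flip_apply, pureBilin_apply, pureBilin_apply, hform]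
    ring
  have hfr : ∀ k : ℕ, Module.finrank F (Fin k → F) = k := fun k => Module.finrank_fin_fun F
  refine isMaximalIn_omegaGL hG _ (TT (pureBilin e P).flip S.ten) (fun g => mem_TT_flip_iff e P g S.ten) ?_
  refine S.isMaximalIn (good_of_finite ndW (by rwa [hfr])) hG (by rwa [hfr]) (pu_of ndU ?_) (by rwa [hfr])
    (by rwa [hfr, hfr])
  rw [hfr]
  by_cases h4 : n₂ = 4
  · right; right
    intro T hT hT2
    refine hp h4 ⟨T, le_top, fun w hw => (zU w).1 (hT w hw), ?_⟩
    rw [hT2, finrank_top, hfr, h4]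
  · omega

end coord

end Cfsg.Agent.H882.Ten
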